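-- Team project OMG (S2415), package [MIXW] (helper13): a nondegenerate plus-type subspace of
-- dimension `2k - 2` of the minus space contains the image under an isometry of the standard
-- vectors `e_i, f_i`, `i + 1 < k`.  Hyperbolic bases + Witt's lemma (S0750).
import Mathlib
import Cfsg.Agent.S0750
import Cfsg.Agent.Lib.Helper14.Forms
import Cfsg.Agent.Lib.Helper44.Char2Forms
import Cfsg.Agent.Lib.Helper88.OHyp.CntWitt
import Cfsg.Agent.Lib.Helper94.Refl
import Cfsg.Agent.Lib.Helper94.OMG.Defs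

set_option autoImplicit false
open scoped Matrix MatrixGroups

namespace Cfsg.Agent.Lib.Helper13.OMG

open Cfsg.Agent.Lib.Helper31.Siegel Cfsg.Agent.Lib.Helper32.OPG Cfsg.Agent.Lib.Helper64.OParM
open Cfsg.Agent.Lib.Helper23.OHyp Cfsg.Agent.Lib.Helper94.OMG

universe u

/-- [MIXW] -/
theorem pkgMixW : PkgMixW.{u} := by
  intro F _ _ k a b hab hk C hNd hPlus hfin
  classical
  -- the bundled quadratic form
  obtain ⟨Q', hcoe, hnd⟩ : ∃ Q' : QuadraticForm F (MI k → F),
      ⇑Q' = Cfsg.quadFormMinus k F a b ∧ (QuadraticMap.polarBilin Q').Nondegenerate :=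
    ⟨Cfsg.Agent.Lib.Helper14.minusQF k F a b, Cfsg.Agent.Lib.Helper14.minusQF_coe k F a b,
      Cfsg.Agent.Lib.Helper44.minusQF_nondegenerate_all k F a b hab⟩
  have hpol : ∀ u v : MI k → F, QuadraticMap.polar (⇑Q') u v
      = QuadraticMap.polar (Cfsg.quadFormMinus k F a b) u v := by
    intro u v
    rw [hcoe]
  have hQv : ∀ v : MI k → F, Q' v = Cfsg.quadFormMinus k F a b v := by
    intro v
    rw [hcoe]
  -- `C` is nondegenerate for `Q'`
  have hCnd : Cfsg.Agent.Lib.Helper99.QNondegOn Q' C := by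
    intro u hu hall
    by_contra hu0
    obtain ⟨-, ⟨y, hy, hy'⟩⟩ := hNd u hu hu0
    apply hy'
    have := hall y hy
    rw [hpol] at this
    exact this
  -- hyperbolic pairs in `C`
  obtain ⟨U, hUC, hUts, hUfin⟩ := hPlus
  have hUle : k - 1 ≤ Module.finrank F U := by omega
  obtain ⟨e₂, f₂, h₂, hm₂⟩ := Cfsg.Agent.Lib.Helper99.hyp_of_singular Q' (k - 1) C U hCnd hUC
    (fun w hw => by rw [hQv]; exact hUts w hw) hUle
  -- the standard hyperbolic pairs
  let e₁ : Fin (k - 1) → (MI k → F) := fun i => eM ⟨i.val, by omega⟩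
  let f₁ : Fin (k - 1) → (MI k → F) := fun i => fM ⟨i.val, by omega⟩
  have h₁ : Cfsg.Agent.Lib.Helper99.HypFam Q' e₁ f₁ := by
    refine ⟨fun i => ⟨?_, ?_⟩, fun i j => ?_, fun i j => ⟨?_, ?_⟩⟩
    · rw [hQv]
      simp [e₁, eM, Cfsg.quadFormMinus, Pi.single_apply]
    · rw [hQv]
      simp [f₁, fM, Cfsg.quadFormMinus, Pi.single_apply]
    · rw [hpol]
      simp only [e₁, f₁, eM, fM]
      rw [Cfsg.Agent.Lib.Helper14.minus_polar_inl, Pi.single_apply]
      simp only [Sum.inl.injEq, Sum.inr.injEq, Fin.mk.injEq]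
      by_cases hij : i = j
      · subst hij
        simp
      · have : ¬ (i.val = j.val) := fun h => hij (Fin.ext h)
        simp [hij, this]
    · rw [hpol]
      simp only [e₁, eM]
      rw [Cfsg.Agent.Lib.Helper14.minus_polar_inl, Pi.single_apply]
      simp
    · rw [hpol]
      simp only [f₁, fM]
      rw [Cfsg.Agent.Lib.Helper14.minus_polar_inr, Pi.single_apply]
      simp
  have hli0 := Cfsg.Agent.Lib.Helper99.hyp_li Q' e₁ f₁ h₁ (Fin.elim0 : Fin 0 → (MI k → F))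
    (linearIndependent_empty_type) (fun j => j.elim0)
  have hli1 : LinearIndependent F (Sum.elim e₁ f₁) := by
    have := hli0.comp Sum.inl Sum.inl_injective
    rwa [Sum.elim_comp_inl] at this
  set W₀ : Submodule F (MI k → F) := Submodule.span F (Set.range (Sum.elim e₁ f₁)) with hW₀
  have hW₀fin : Module.finrank F W₀ = 2 * (k - 1) := by
    rw [hW₀, finrank_span_eq_card hli1, Fintype.card_sum, Fintype.card_fin]
    omega
  have hm₁ : ∀ i, e₁ i ∈ W₀ ∧ f₁ i ∈ W₀ := by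
    intro i
    exact ⟨Submodule.subset_span ⟨Sum.inl i, rfl⟩, Submodule.subset_span ⟨Sum.inr i, rfl⟩⟩
  have hCfin : Module.finrank F C = 2 * (k - 1) := by omega
  obtain ⟨φ, hφ⟩ := Cfsg.Agent.Lib.Helper88.OHyp.exists_isometry_of_hyp Q' W₀ C hW₀fin hCfin
    e₁ f₁ e₂ f₂ h₁ h₂ hm₁ hm₂
  obtain ⟨g, hg, hgφ⟩ := Cfsg.Agent.S0750.result Q' hnd W₀ C φ hφ
  -- the isometry as an element of `GL`
  have hinv1 : g.toLinearMap ∘ₗ g.symm.toLinearMap = LinearMap.id := by
    ext v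
    simp
  have hinv2 : g.symm.toLinearMap ∘ₗ g.toLinearMap = LinearMap.id := by
    ext v
    simp
  have hmem : Cfsg.Agent.Lib.Helper94.glOfLin g.toLinearMap g.symm.toLinearMap hinv1 hinv2
      ∈ GM k F a b := by
    intro u _
    show Cfsg.quadFormMinus k F a b
      (((Cfsg.Agent.Lib.Helper94.glOfLin g.toLinearMap g.symm.toLinearMap hinv1 hinv2
        : GL (MI k) F) : Matrix (MI k) (MI k) F) *ᵥ u) = Cfsg.quadFormMinus k F a b u
    rw [Cfsg.Agent.Lib.Helper94.glOfLin_mulVec, ← hQv, ← hQv]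
    exact hg u
  refine ⟨⟨Cfsg.Agent.Lib.Helper94.glOfLin g.toLinearMap g.symm.toLinearMap hinv1 hinv2,
    hmem⟩, ?_⟩
  intro i hi
  have hact : ∀ v : MI k → F, matM (⟨Cfsg.Agent.Lib.Helper94.glOfLin g.toLinearMap
      g.symm.toLinearMap hinv1 hinv2, hmem⟩ : ↥(GM k F a b)) *ᵥ v = g v := by
    intro v
    exact Cfsg.Agent.Lib.Helper94.glOfLin_mulVec g.toLinearMap g.symm.toLinearMap hinv1 hinv2 v
  have he : (eM i : MI k → F) = e₁ ⟨i.val, by omega⟩ := rfl
  have hf : (fM i : MI k → F) = f₁ ⟨i.val, by omega⟩ := rfl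
  constructor
  · rw [hact, he]
    have h1 := hgφ ⟨e₁ ⟨i.val, by omega⟩, (hm₁ _).1⟩
    simp only at h1
    rw [h1]
    exact (φ _).2
  · rw [hact, hf]
    have h1 := hgφ ⟨f₁ ⟨i.val, by omega⟩, (hm₁ _).2⟩
    simp only at h1
    rw [h1]
    exact (φ _).2

end Cfsg.Agent.Lib.Helper13.OMG
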